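import Mathlib
import Cfsg.Agent.FT.BG4_18
import Cfsg.Agent.FT.BG1_17
import Cfsg.Agent.GT.TransferPNilp

/-! The conclusions of 4.18 and 5.6 for the whole group. -/

set_option autoImplicit false

namespace Cfsg.Agent.FT

open Cfsg Cfsg.Agent.GT
open scoped commutatorElement

universe u

variable {G : Type u} [Group G] [Finite G]

omit [Finite G] in
theorem b4_isSolvable_top [h : Group.IsSolvable G] : Group.IsSolvable (⊤ : Subgroup G) :=
  inferInstance

omit [Finite G] in
theorem b4_odd_top (h : Odd (Nat.card G)) : Odd (Nat.card (⊤ : Subgroup G)) := by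
  rwa [Subgroup.card_top]

theorem b4_translate418 {p : ℕ} [hp : Fact p.Prime] (hodd : Odd (Nat.card G))
    (h : (∀ q : ℕ, q.Prime → q ∣ (piCoreOf {p}ᶜ (⊤ : Subgroup G)).relIndex ⊤ → q ≤ p) ∧
      HasNormalCompl p (commutator G) ∧ commutator G ≤ pPrimePCoreOf p (⊤ : Subgroup G) ∧
        ¬ p ∣ (pPrimePCoreOf p (⊤ : Subgroup G)).relIndex ⊤) :
    (∀ q : ℕ, q.Prime → q ∣ (pPrimeCore p G).index → q ≤ p) ∧
      ((p = 3 ∨ ∀ q : ℕ, q.Prime → q ∣ Nat.card G → p ≤ q) → HasNormalPComplement p G) ∧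
      HasNormalPComplement p ↥(commutator G) ∧
      (∀ L : Subgroup ↥(commutator G), (Nat.card L).Coprime p →
        L ≤ pPrimeCore p ↥(commutator G)) ∧
      commutator G ≤ pPrimePCore p G ∧ ((pPrimePCore p G).index).Coprime p := by
  obtain ⟨h1, h2, h3, h4⟩ := h
  refine ⟨?_, fun h5 => ?_, hasNormalCompl_iff.mp h2, fun L hL => ?_, ?_, ?_⟩
  · rwa [pcore_top_eq_pPrimeCore, Subgroup.relIndex_top_right] at h1
  · refine Tr.hasNormalPComplement_top.mp (hasNormalCompl_iff.mp
      (b4_min_p_complement (b4_odd_top hodd) h1 ?_))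
    rw [Subgroup.card_top]
    exact h5.symm
  · have h5 := (sub_Hall_pcore h2 (Subgroup.map_subtype_le L)).mpr
      (p'group_iff_coprime.mpr (by rwa [card_map_subtype]))
    rw [← pPrimeCore_map_eq_pcore] at h5
    exact (Subgroup.map_le_map_iff_of_injective (Subgroup.subtype_injective _)).mp h5
  · rwa [pPrimePCoreOf_top] at h3
  · rw [pPrimePCoreOf_top, Subgroup.relIndex_top_right] at h4
    exact ((Nat.Prime.coprime_iff_not_dvd hp.out).mpr h4).symm

end Cfsg.Agent.FT
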