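import Mathlib
import Cfsg.Agent.FT.BG14_7

/-! B & G, Corollary 14.8 -/

set_option autoImplicit false
set_option linter.unusedSectionVars false
set_option linter.unusedVariables false

namespace Cfsg.Agent.FT

open Cfsg B13

universe u

variable {G : Type u} [Group G] [Finite G]

/-- B & G, Corollary 14.8, first part. -/
theorem P1type_trans (hG : IsMinSimpleOddOrder G) {M H : Subgroup G} (hM : IsTypeP1Max M)
    (hH : IsTypeP1Max H) : ∃ g : G, H = cj g M := by
  obtain ⟨K, hK⟩ := hall_exists (kappa M) (mmax_sol hG hM.isCoatom)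
  obtain ⟨L, h⟩ := Ptype_embedding hG hM.1 hK
  refine (h.trans H hH.1).resolve_right ?_
  rintro ⟨g, rfl⟩
  rcases h.typeP2 with h2 | h2
  · exact hM.not_P2 h2.1
  · exact hH.not_P2 ((P2typeJ g).mpr h2.1)

/-- B & G, Corollary 14.8, second part. -/
theorem Ptype_trans (hG : IsMinSimpleOddOrder G) {M : Subgroup G} (hM : IsTypePMax M) :
    ∃ Mstar : Subgroup G, IsTypePMax Mstar ∧ (¬ ∃ g : G, Mstar = cj g M) ∧
      ∀ H : Subgroup G, IsTypePMax H → (∃ g : G, H = cj g M) ∨ ∃ g : G, H = cj g Mstar := by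
  obtain ⟨K, hK⟩ := hall_exists (kappa M) (mmax_sol hG hM.isCoatom)
  obtain ⟨L, h⟩ := Ptype_embedding hG hM hK
  exact ⟨L, h.typeP, h.not_conj, h.trans⟩

end Cfsg.Agent.FT
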