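import Mathlib
import Cfsg.Agent.FT.Defs4
import Cfsg.Agent.FT.B4Aux
import Cfsg.Agent.FT.B10Aux
import Cfsg.Agent.GT.PSolvable

/-! B & G, Proposition 4.4. -/

set_option autoImplicit false

namespace Cfsg.Agent.FT

open Cfsg Cfsg.Agent.GT
open scoped commutatorElement

universe u

variable {G : Type u} [Group G] [Finite G]

/-- 4.4(a): a normal abelian subgroup of a `p`-group lies in a member of `SCN`. -/
theorem exists_SCN {p : ℕ} [Fact p.Prime] {R A : Subgroup G} (pR : IsPGroup p R)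
    (nA : NormalIn A R) (cA : IsMulCommutative A) : ∃ B : Subgroup G, IsSCN R B ∧ A ≤ B := by
  obtain ⟨B, h1, h2⟩ := PG.exists_isSCN_ge pR nA.le nA.norm cA
  exact ⟨B, h2, h1⟩

set_option linter.unusedSectionVars false in
/-- 4.4(a): a member of `SCN(R)` is abelian and a maximal abelian subgroup of `R`. -/
theorem SCN_max {R A : Subgroup G} (hA : IsSCN R A) :
    IsMulCommutative A ∧ ∀ B : Subgroup G, B ≤ R → IsMulCommutative B → A ≤ B → B = A := by
  refine ⟨isMulCommutative_iff_le_cent.mpr (hA.2.2.ge.trans inf_le_right), fun B hB cB hAB => ?_⟩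
  exact le_antisymm ((le_inf hB (le_cent_of_comm cB le_rfl hAB)).trans hA.2.2.le) hAB

/-- 4.4(b). -/
theorem SCN_Sylow_cent_dprod {p : ℕ} [Fact p.Prime] {H R A : Subgroup G} (sylR : IsSyl p R H)
    (hA : IsSCN R A) : Dprod A (piCoreOf {p}ᶜ (H ⊓ 𝐂(A))) (H ⊓ 𝐂(A)) := by
  have h1 : IsSyl p R (H ⊓ 𝐍(A)) := sylR.of_le (le_inf sylR.le hA.2.1) inf_le_left
  have h2 : NormalIn (H ⊓ 𝐂(A)) (H ⊓ 𝐍(A)) :=
    ⟨inf_le_inf_left _ (cent_le_norm A),
      le_norm_inf (inf_le_left.trans (le_norm H)) (le_norm_cent inf_le_right)⟩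
  have h3 := B10.hall_inf_normal h1 h2
  have h4 : R ⊓ (H ⊓ 𝐂(A)) = A := by
    rw [← inf_assoc, inf_eq_left.mpr sylR.le]; exact hA.2.2
  rw [h4] at h3
  refine ⟨sup_piCoreOf_compl_eq_of_central h3.le inf_le_right h3.card h3.relIndex,
    h3.card.inf_eq_bot (isPiNum_piCoreOf _ _), (piCoreOf_le _).trans inf_le_right⟩

end Cfsg.Agent.FT
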