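import Mathlib
import Cfsg.Agent.FT.Defs4
import Cfsg.Agent.FT.BG4_5

/-! B & G, Proposition 4.6. -/

set_option autoImplicit false

namespace Cfsg.Agent.FT

open Cfsg
open scoped commutatorElement

universe u

variable {G : Type u} [Group G] [Finite G]

theorem odd_normal_p2Elem_exists {p : ℕ} [Fact p.Prime] {R S : Subgroup G} (pR : IsPGroup p R)
    (oddR : Odd (Nat.card R)) (nsSR : NormalIn S R) (ncycS : ¬ IsCyclic S) :
    ∃ E : Subgroup G, NormalIn E R ∧ IsE2 p E S :=
  b4_normal_p2Elem pR oddR nsSR ncycS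

end Cfsg.Agent.FT
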