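import Mathlib
import Cfsg.Agent.FT.Quot
import Cfsg.Agent.FT.Pi
import Cfsg.Agent.FT.BG1_21
import Cfsg.Agent.FT.B10Aux2
import Cfsg.Agent.GT.ThompsonBender

/-! B & G, Lemma 6.6 and Theorem 6.7. -/

set_option autoImplicit false
set_option linter.unusedSectionVars false

namespace Cfsg.Agent.FT

open Cfsg
open scoped commutatorElement

universe u

variable {G : Type u} [Group G] [Finite G]

variable {p : ℕ} [Fact p.Prime]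

/-- 6.6(a). -/
theorem plength1_Frattini {H S : Subgroup G} (sylS : IsSyl p S H) (pl1 : PLengthLE p 1 H) :
    piCoreOf {p}ᶜ H ⊔ S = pPrimePCoreOf p H ∧ piCoreOf {p}ᶜ H ⊔ (H ⊓ 𝐍(S)) = H :=
  ⟨B10.pPrimePCoreOf_eq_sup (B10.syl_of_le sylS ((plength1_iff_Sylow_le sylS).mp pl1)
    (pPrimePCoreOf_normalIn p H).le), B10.pl1_frattini pl1 sylS⟩

/-- 6.6(b). -/
theorem plength1_Sylow_sub_der1 {H S : Subgroup G} (sylS : IsSyl p S H) (pl1 : PLengthLE p 1 H)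
    (h : S ≤ ⁅H, H⁆) : S ≤ ⁅H ⊓ 𝐍(S), H ⊓ 𝐍(S)⁆ :=
  (le_inf le_rfl h).trans (B10.pl1_syl_le_der pl1 sylS)

/-- 6.6(c) for a subgroup. -/
theorem plength1_Sylow_trans' {H S Y : Subgroup G} (sylS : IsSyl p S H) (pl1 : PLengthLE p 1 H)
    {g : G} (sYS : Y ≤ S) (hg : g ∈ H) (h : cj g Y ≤ S) :
    ∃ u ∈ H ⊓ 𝐍(S), ∃ c ∈ H ⊓ 𝐂(Y), g = u * c := by
  obtain ⟨u, hu, c, hc, e⟩ := B10.pl1_trans pl1 sylS sYS hg h
  exact ⟨u, hu, c, ⟨pcore_sub _ _ hc.1, hc.2⟩, e⟩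

/-- 6.6(c). -/
theorem plength1_Sylow_trans {H S : Subgroup G} (sylS : IsSyl p S H) (pl1 : PLengthLE p 1 H)
    {Y : Set G} {g : G} (sYS : Y ⊆ S) (hg : g ∈ H) (h : cjSet g Y ⊆ S) :
    ∃ u ∈ H ⊓ 𝐍(S), ∃ c ∈ H ⊓ Subgroup.centralizer Y, g = u * c := by
  obtain ⟨u, hu, c, hc, e⟩ := plength1_Sylow_trans' (Y := Subgroup.closure Y) sylS pl1
    ((Subgroup.closure_le _).mpr sYS) hg (by rw [cj_closure]; exact (Subgroup.closure_le _).mpr h)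
  exact ⟨u, hu, c, ⟨hc.1, Subgroup.centralizer_le Subgroup.subset_closure hc.2⟩, e⟩

/-- 6.6(d). -/
theorem plength1_Sylow_Jsub {H S Q : Subgroup G} (sylS : IsSyl p S H) (pl1 : PLengthLE p 1 H)
    (sQH : Q ≤ H) (pQ : IsPGroup p Q) : ∃ x ∈ H ⊓ 𝐂(Q ⊓ S), cj x Q ≤ S := by
  obtain ⟨x, hx, hxQ⟩ := B10.syl_conj_le sylS pQ sQH
  obtain ⟨u, hu, c, hc, rfl⟩ := plength1_Sylow_trans' (Y := Q ⊓ S) sylS pl1 inf_le_right hx
    ((cj_mono x inf_le_left).trans hxQ)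
  refine ⟨c, hc, ?_⟩
  rw [cj_mul, cj_le_iff, cj_eq_self ((𝐍(S)).inv_mem hu.2)] at hxQ
  exact hxQ

/-- 6.7 holds without the `p`-length hypothesis (Thompson–Bender). -/
theorem solvable_norm_pmaxElem {H E L : Subgroup G} (maxE : IsMaxElem p E H) (hp : p ≠ 2)
    (solH : Group.IsSolvable H) (sLH : L ≤ H) (nLE : E ≤ 𝐍(L))
    (p'L : IsPiSubgroup {p}ᶜ L) : L ≤ piCoreOf {p}ᶜ H :=
  GT.TB.le_piCoreOf hp (GT.isPConstrained_of_isSolvable solH) maxE.1 sLH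
    (B10.elem_pgroup maxE.2.1) p'L nLE
    fun _ hx hxp => nLE (B10.mem_of_max maxE hx.1 hx.2 hxp)

/-- 6.7. -/
theorem plength1_norm_pmaxElem {H E L : Subgroup G} (maxE : IsMaxElem p E H) (hp : p ≠ 2)
    (solH : Group.IsSolvable H) (pl1 : PLengthLE p 1 H) (sLH : L ≤ H) (nLE : E ≤ 𝐍(L))
    (p'L : IsPiSubgroup {p}ᶜ L) : L ≤ piCoreOf {p}ᶜ H :=
  have _ := pl1
  solvable_norm_pmaxElem maxE hp solH sLH nLE p'L

end Cfsg.Agent.FT
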