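import Mathlib
import Cfsg.Agent.FT.PF13_12
import Cfsg.Agent.FT.Pi
import Cfsg.Agent.S1472

/-!
Peterfalvi (14.6), (14.7).
-/

set_option autoImplicit false

namespace Cfsg.Agent.FT

open Cfsg Classical

universe u

variable {G : Type u} [Group G]

/-- The elements of exponent `r` of an abelian subgroup. -/
def pf14Omega (Z : Subgroup G) (hZ : IsMulCommutative Z) (r : ℕ) : Subgroup G where
  carrier := {z | z ∈ Z ∧ z ^ r = 1}
  mul_mem' := by
    rintro a b ⟨ha, ha'⟩ ⟨hb, hb'⟩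
    refine ⟨Z.mul_mem ha hb, ?_⟩
    have hc : Commute a b :=
      congrArg Subtype.val (hZ.is_comm.comm (⟨a, ha⟩ : Z) ⟨b, hb⟩)
    rw [hc.mul_pow, ha', hb', one_mul]
  one_mem' := ⟨Z.one_mem, one_pow r⟩
  inv_mem' := by
    rintro a ⟨ha, ha'⟩
    exact ⟨Z.inv_mem ha, by rw [inv_pow, ha', inv_one]⟩

namespace TPHyp

variable [Finite G] {S W₁ U W₂ : Subgroup G} (h : TPHyp S W₁ U W₂)
include h

theorem U_hall : IsHallOf U S := by
  refine ⟨h.typeP.U_le, ?_⟩
  have h1 := card_mul_relIndex_of_le h.typeP.U_le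
  rw [h.typeP.card_eq, mul_comm (Nat.card (fittingHallOf S)), mul_assoc] at h1
  rw [Nat.eq_of_mul_eq_mul_left Nat.card_pos h1]
  exact Nat.Coprime.mul_right h.typeP.coprime_Fcore_U.symm h.typeP.coprime_U_W₁

/-- (14.6) -/
theorem pf14_6 (h2 : FTtype S = 2) {L H E : Subgroup G} (hF : IsFrob L H E)
    (hnil : Group.IsNilpotent H) (hpE : Nat.card W₂ ∣ Nat.card E) (hUH : U ≤ H) :
    TypePGalois S U ⊥ := by
  by_contra hn
  obtain ⟨a, H₁, ha, -, hU, hH₁, hH₁ne, k, hk⟩ := h.nonGalois_data hn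
  have ha1 : a ≠ 1 := by
    rintro rfl
    exact h.U_ne (Subgroup.card_eq_one.mp (by simpa using hU))
  obtain ⟨r, hr, hra⟩ := Nat.exists_prime_and_dvd ha1
  have := Fact.mk hr
  have hrU : r ∣ Nat.card U := by
    rw [hU]; exact hra.trans (Dvd.intro_left a (pow_two a).symm)
  obtain ⟨x, ⟨hx1, hxU⟩, hxr⟩ := exists_mem_orderOf_eq (H := 𝐂(H₁) ⊓ U) hr (by
    have h1 := card_mul_relIndex (𝐂(H₁)) U
    rw [hU, pow_two] at h1
    conv at h1 => rhs; rhs; rw [hk, mul_comm]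
    rw [← mul_assoc] at h1
    rw [Nat.eq_of_mul_eq_mul_right (relIndex_pos _ _) h1]
    exact hra.mul_right k)
  have hxne : x ≠ 1 := by
    rintro rfl
    exact hr.one_lt.ne (by simpa using hxr)
  have hxS : 𝐂[x] ≤ S := by
    obtain ⟨y, hy, hy1⟩ := exists_mem_ne_one hH₁ne
    exact h.cent_le (typeA'_subset_typeA0' S ((mem_FTsupp_typeP h.hG h.max h.type_ne_one).mpr
      ⟨h.typeP.U_le_der1 hxU, hxne, y, Fcore_sub_FTcore h.hG h.max (hH₁ hy), hy1,
        (mem_cent.mp hx1 y hy).symm⟩))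
  have hLH : L ≤ 𝐍(H) := hF.sdprod.normalIn.norm
  have hZc : IsMulCommutative ↥(piCoreOf {r} H ⊓ 𝐂(H)) :=
    isMulCommutative_iff_le_cent.mpr
      (inf_le_right.trans (cent_anti (inf_le_left.trans (pcore_sub {r} H))))
  have hZne : piCoreOf {r} H ⊓ 𝐂(H) ≠ ⊥ :=
    meet_center_nil hnil (piCoreOf_normalIn {r} H) fun hb => by
      have := dvd_card_pHall (nilpotent_pcore_Hall {r} hnil) rfl
        (hrU.trans (Subgroup.card_dvd_of_le hUH))
      rw [hb, Subgroup.card_bot] at this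
      exact hr.one_lt.ne' (Nat.dvd_one.mp this)
  have hZp : IsPGroup r ↥(piCoreOf {r} H ⊓ 𝐂(H)) := (pcore_isPGroup r H).to_le inf_le_left
  have hZn : L ≤ 𝐍(piCoreOf {r} H ⊓ 𝐂(H)) := le_norm_inf (pcore_norm {r} hLH) (le_norm_cent hLH)
  set Z := pf14Omega (piCoreOf {r} H ⊓ 𝐂(H)) hZc r with hZ
  have hZle : Z ≤ piCoreOf {r} H ⊓ 𝐂(H) := fun z hz => hz.1
  have hZp' : IsPGroup r Z := hZp.to_le hZle
  have hZne' : Z ≠ ⊥ := by
    obtain ⟨n, hn'⟩ := IsPGroup.iff_card.mp hZp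
    have : r ∣ Nat.card ↥(piCoreOf {r} H ⊓ 𝐂(H)) := by
      rw [hn']
      exact dvd_pow_self r fun h0 => hZne (Subgroup.card_eq_one.mp (by rw [hn', h0, pow_zero]))
    obtain ⟨z, hz, hzr⟩ := exists_mem_orderOf_eq hr this
    intro hb
    have : z ∈ Z := ⟨hz, by rw [← hzr, pow_orderOf_eq_one]⟩
    rw [hb, Subgroup.mem_bot] at this
    rw [this, orderOf_one] at hzr
    exact hr.one_lt.ne hzr
  have hZnorm : E ≤ 𝐍(Z) :=
    le_normalizer_of_cj_le fun g hg => cj_le_iff_forall.mpr fun z hz =>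
      ⟨conj_mem_of_norm (hZn (hF.sdprod.le_right hg)) hz.1, by
        rw [conj_pow, hz.2]; group⟩
  have hZH : Z ≤ H := hZle.trans (inf_le_left.trans (pcore_sub {r} H))
  have hdvd : Nat.card W₂ ∣ Nat.card Z - 1 :=
    hpE.trans (regular_norm_dvd_pred hZnorm fun y hy hy1 =>
      le_bot_iff.mp ((inf_le_inf_right _ hZH).trans (hF.semiregular y hy hy1).le))
  have hZU : Z ≤ 𝐂(U) := hZle.trans (inf_le_right.trans (cent_anti hUH))
  have hZS : Z ≤ S := (hZU.trans (cent_le_cent_elt hxU)).trans hxS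
  have hZU' : Z ≤ U := by
    have h1 : IsHallOf U (U ⊔ Z) := h.U_hall.of_le le_sup_left (sup_le h.typeP.U_le hZS)
    exact (sub_normal_Hall (pHall_primesOf_of_coprime h1.1 h1.2)
      (normalIn_sup_left (le_norm_of_le_cent hZU)).norm le_sup_right).mpr
        (pi_pgroup hZp' ⟨hr, hrU⟩)
  obtain ⟨R, hR, hZR⟩ := Hall_superset (isSolvable_of_comm h.U_comm) hZU' (pgroup_of_isPGroup hZp')
  have hrank := ((FTtypeI_II_facts h.hG h.max (Or.inr ⟨h2, h.typeP.sdprod_Fcore⟩)).1 r R hr hR).2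
  have hcard := pRankLE_iff.mp hrank Z hZR ⟨isMulCommutative_of_le hZc hZle, fun z hz => hz.2⟩
  obtain ⟨n, hn'⟩ := IsPGroup.iff_card.mp hZp'
  have hn2 : n ≤ 2 := (Nat.pow_le_pow_iff_right hr.one_lt).mp (hn' ▸ hcard)
  have hn0 : n ≠ 0 := fun h0 => hZne' (Subgroup.card_eq_one.mp (by rw [hn', h0, pow_zero]))
  have hp3 := h.three_le_p
  have hra' : r ≤ a := Nat.le_of_dvd (by omega) hra
  have hr2 := hr.two_le
  have key : Nat.card W₂ ∣ (r + 1) * (r - 1) := by
    have e : (r + 1) * (r - 1) = r ^ 2 - 1 := by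
      have := Nat.sq_sub_sq r 1
      rw [one_pow] at this
      exact this.symm
    rw [hn'] at hdvd
    rcases (by omega : n = 1 ∨ n = 2) with rfl | rfl
    · rw [pow_one] at hdvd
      exact hdvd.mul_left _
    · rw [e]; exact hdvd
  rcases (Nat.Prime.dvd_mul h.p_prime).mp key with h3 | h3
  · have := Nat.le_of_dvd (by omega) h3
    omega
  · have := Nat.le_of_dvd (by omega) h3
    omega

/-- (14.7) -/
theorem pf14_7 {T V : Subgroup G} (hT : TPHyp T W₂ V W₁) (hlt : Nat.card W₁ < Nat.card W₂)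
    (hg : TypePGalois S U ⊥) {y : G} (hy : y ∈ fittingHallOf T) (hn : cj y W₂ ≤ 𝐍(U))
    (hsr : Semiregular U (cj y W₂)) : False := by
  have hp := h.three_le_p
  have hq := h.three_le_q
  have hdvd := regular_norm_dvd_pred hn hsr
  rcases h.galois_card hg with ⟨hpq, hU⟩ | ⟨-, hU⟩
  · obtain ⟨F, _, _, f, ψ, hF, hsurj, hker, hadd, hψ, hψmul, hψ1, hW₂⟩ := h.core.typeP_Galois_P hg
    simp only [Subgroup.mem_bot] at hker
    rw [PtypeC_bot] at hψ1
    have hC : tpC S U = ⊥ := h.C_eq_bot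
    simp only [bot_sup_eq] at hW₂
    have hinj : Set.InjOn f (fittingHallOf S : Set G) := by
      intro a ha b hb e
      have hab := (fittingHallOf S).mul_mem ha ((fittingHallOf S).inv_mem hb)
      have h1 := hadd (a * b⁻¹) hab b hb
      rw [inv_mul_cancel_right, e] at h1
      exact mul_inv_eq_one.mp ((hker _ hab).mp (by linear_combination h1.symm))
    have hψinj : Set.InjOn ψ (U : Set G) := by
      intro a ha b hb e
      have hab := U.mul_mem ha (U.inv_mem hb)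
      have h1 := hψmul (a * b⁻¹) hab b hb
      rw [inv_mul_cancel_right, e] at h1
      have h2 := (hψ1 _ hab).mp (mul_right_cancel₀ (hψ b hb).1 (by rw [one_mul]; exact h1.symm))
      have h3 : a * b⁻¹ ∈ tpC S U := h2
      rw [hC, Subgroup.mem_bot] at h3
      exact mul_inv_eq_one.mp h3
    have := Fact.mk h.p_prime
    have := Fact.mk h.q_prime
    have := Cfsg.Agent.S1472.result (Nat.card W₂) (Nat.card W₁)
      ((Cfsg.Agent.S1546.result (Nat.card W₂) (Nat.card W₁) h.p_prime h.q_prime h.p_ne_two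
        h.q_ne_two).2.2 hpq).1 F hF (fittingHallOf S) U (fittingHallOf T) f ψ
      ⟨fun x _ => Set.mem_univ _, hinj, hsurj⟩ hadd h.typeP.sdprod_Fcore.norm hψ hψmul hψinj hU
      hT.P_comm hT.typeP.coprime_Fcore_W₁
      (fun x hx hfx => hT.norm_P (hT.typeP.W₁_le ((hW₂ x hx).mpr hfx))) y hy
      (fun x hx hfx => hn (conj_mem_cj_of_mem y ((hW₂ x hx).mpr hfx)))
    omega
  · rw [card_cj] at hdvd
    obtain ⟨k, hk⟩ := hdvd
    have hU0 : 0 < Nat.card U := Nat.card_pos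
    have hU1 : Nat.card U = Nat.card W₂ * k + 1 := by omega
    have h1 : 1 ≤ Nat.card W₂ ^ Nat.card W₁ := Nat.one_le_pow _ _ (by omega)
    have h2 : ((Nat.card W₂ : ℤ) * k + 1) * Nat.card W₁ * (Nat.card W₂ - 1) =
        (Nat.card W₂ : ℤ) ^ Nat.card W₁ - 1 := by
      rw [hU1] at hU
      have := congrArg (Nat.cast : ℕ → ℤ) hU
      push_cast [Nat.cast_sub h1, Nat.cast_sub (show 1 ≤ Nat.card W₂ by omega)] at this
      exact this
    obtain ⟨m, hm⟩ := dvd_pow_self (Nat.card W₂ : ℤ) (show Nat.card W₁ ≠ 0 by omega)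
    have h3 : (Nat.card W₂ : ℤ) ∣ (Nat.card W₁ : ℤ) - 1 :=
      ⟨k * Nat.card W₁ * (Nat.card W₂ - 1) + Nat.card W₁ - m, by linear_combination hm.symm - h2⟩
    have := Int.le_of_dvd (by omega) h3
    omega

end TPHyp

end Cfsg.Agent.FT
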