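import Mathlib
import Cfsg.Agent.FT.PF5Extend
import Cfsg.Agent.FT.PF5SeqInd

/-!
# Transport of coherence along a group isomorphism
-/

set_option autoImplicit false
set_option linter.unusedSectionVars false

namespace Cfsg.Agent.FT

open Cfsg Cfsg.Agent.Ch Classical

section Pull

variable {L : Type*} [Group L] [Fintype L] {L' : Type*} [Group L'] [Fintype L']
  {G : Type*} [Group G] [Fintype G]

/-- Composition with an isomorphism `e`. -/
def pull (e : L' ≃* L) : (L → ℂ) ≃ₗ[ℂ] (L' → ℂ) := LinearEquiv.funCongrLeft ℂ ℂ e.toEquiv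

variable (e : L' ≃* L) {S : Set (L → ℂ)} {τ : (L → ℂ) → (G → ℂ)} {R : (L → ℂ) → Finset (G → ℂ)}

theorem pull_apply (φ : L → ℂ) (x : L') : pull e φ x = φ (e x) := rfl

theorem pull_one (φ : L → ℂ) : pull e φ 1 = φ 1 := by rw [pull_apply, map_one]

theorem pull_conjFun (φ : L → ℂ) : pull e (conjFun φ) = conjFun (pull e φ) := rfl

theorem classInner_pull (φ ψ : L → ℂ) : classInner (pull e φ) (pull e ψ) = classInner φ ψ :=
  classInner_comp_mulEquiv e φ ψ

theorem isIrrCharacter_pull_iff {φ : L → ℂ} :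
    IsIrrCharacter L' (pull e φ) ↔ IsIrrCharacter L φ := isIrrCharacter_comp_mulEquiv_iff e

theorem pull_mem_zspan {α : L → ℂ} (h : α ∈ zspan S) : pull e α ∈ zspan (pull e '' S) := by
  refine zspan_induction (p := fun α => pull e α ∈ zspan (pull e '' S))
    (fun a ha => mem_zspan ⟨a, ha, rfl⟩) (by rw [map_zero]; exact zspan_zero _)
    (fun a b _ _ ha hb => by rw [map_add]; exact zspan_add ha hb)
    (fun n a _ ha => by rw [map_smul]; exact zspan_intsmul n ha) h

theorem symm_mem_zspan {β : L' → ℂ} (h : β ∈ zspan (pull e '' S)) : (pull e).symm β ∈ zspan S := by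
  refine zspan_induction (p := fun β => (pull e).symm β ∈ zspan S)
    (fun a ha => ?_) (by rw [map_zero]; exact zspan_zero _)
    (fun a b _ _ ha hb => by rw [map_add]; exact zspan_add ha hb)
    (fun n a _ ha => by rw [map_smul]; exact zspan_intsmul n ha) h
  obtain ⟨a, ha, rfl⟩ := ha
  rw [LinearEquiv.symm_apply_apply]
  exact mem_zspan ha

theorem pull_symm_one (β : L' → ℂ) : (pull e).symm β 1 = β 1 := by
  rw [← pull_one e ((pull e).symm β), LinearEquiv.apply_symm_apply]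

theorem pull_mem_zspanOn {α : L → ℂ} (h : α ∈ zspanOn S {1}ᶜ) :
    pull e α ∈ zspanOn (pull e '' S) {1}ᶜ :=
  mem_zspanOn_one.2 ⟨pull_mem_zspan e h.1, by rw [pull_one, (mem_zspanOn_one.1 h).2]⟩

theorem symm_mem_zspanOn {β : L' → ℂ} (h : β ∈ zspanOn (pull e '' S) {1}ᶜ) :
    (pull e).symm β ∈ zspanOn S {1}ᶜ :=
  mem_zspanOn_one.2 ⟨symm_mem_zspan e h.1, by rw [pull_symm_one, (mem_zspanOn_one.1 h).2]⟩

theorem classInner_pull_symm (φ ψ : L' → ℂ) :
    classInner ((pull e).symm φ) ((pull e).symm ψ) = classInner φ ψ := by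
  rw [← classInner_pull e, LinearEquiv.apply_symm_apply, LinearEquiv.apply_symm_apply]

theorem _root_.Cfsg.IsCoherenceSystem.pull (hS : IsCoherenceSystem S τ R) :
    IsCoherenceSystem (pull e '' S) (fun β => τ ((pull e).symm β))
      (fun β => R ((pull e).symm β)) where
  nonempty := hS.nonempty.image _
  isCharacter := by
    rintro _ ⟨χ, hχ, rfl⟩
    exact (hS.isCharacter χ hχ).comp_mulEquiv e
  conj_mem := by
    rintro _ ⟨χ, hχ, rfl⟩
    exact ⟨_, hS.conj_mem χ hχ, rfl⟩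
  conj_ne := by
    rintro _ ⟨χ, hχ, rfl⟩ h
    exact hS.conj_ne χ hχ ((FT.pull e).injective h)
  isometry := by
    obtain ⟨h1, h2, h3, h4⟩ := hS.isometry
    refine ⟨fun α hα β hβ => ?_, fun α hα n => ?_, fun α hα β hβ => ?_,
      fun α hα => h4 _ (symm_mem_zspanOn e hα)⟩
    · simp only [map_add]
      exact h1 _ (symm_mem_zspanOn e hα) _ (symm_mem_zspanOn e hβ)
    · simp only [map_zsmul]
      exact h2 _ (symm_mem_zspanOn e hα) n
    · exact (h3 _ (symm_mem_zspanOn e hα) _ (symm_mem_zspanOn e hβ)).trans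
        (classInner_pull_symm e α β)
  map_one := fun α hα => hS.map_one _ (symm_mem_zspanOn e hα)
  orthogonal := by
    rintro _ ⟨χ, hχ, rfl⟩ _ ⟨φ, hφ, rfl⟩ h
    rw [classInner_pull]
    exact hS.orthogonal χ hχ φ hφ fun h' => h (by rw [h'])
  orthonormal := by
    rintro _ ⟨χ, hχ, rfl⟩
    simp only [LinearEquiv.symm_apply_apply]
    exact hS.orthonormal χ hχ
  virtual := by
    rintro _ ⟨χ, hχ, rfl⟩
    simp only [LinearEquiv.symm_apply_apply]
    exact hS.virtual χ hχ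
  sum_eq := by
    rintro _ ⟨χ, hχ, rfl⟩
    simp only [← pull_conjFun, ← map_sub, LinearEquiv.symm_apply_apply]
    exact hS.sum_eq χ hχ
  disjoint := by
    rintro _ ⟨χ, hχ, rfl⟩ _ ⟨φ, hφ, rfl⟩
    simp only [← pull_conjFun, classInner_pull, LinearEquiv.symm_apply_apply]
    exact hS.disjoint χ hχ φ hφ

theorem coherent_pull_iff :
    Coherent (pull e '' S) (fun β => τ ((pull e).symm β)) ↔ Coherent S τ := by
  constructor
  · rintro ⟨ν, hν⟩
    refine ⟨ν ∘ₗ (pull e).toLinearMap, fun χ hχ φ hφ => ?_, fun χ hχ => hν.virt _ ⟨χ, hχ, rfl⟩,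
      fun α hα => ?_⟩
    · exact (hν.inner _ ⟨χ, hχ, rfl⟩ _ ⟨φ, hφ, rfl⟩).trans (classInner_pull e χ φ)
    · have := hν.agree _ (pull_mem_zspanOn e hα)
      rw [LinearEquiv.symm_apply_apply] at this
      exact this
  · rintro ⟨ν, hν⟩
    refine ⟨ν ∘ₗ (pull e).symm.toLinearMap, ?_, ?_, fun α hα => hν.agree _ (symm_mem_zspanOn e hα)⟩
    · rintro _ ⟨χ, hχ, rfl⟩ _ ⟨φ, hφ, rfl⟩
      simp only [LinearMap.comp_apply, LinearEquiv.coe_coe, LinearEquiv.symm_apply_apply,
        classInner_pull]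
      exact hν.inner χ hχ φ hφ
    · rintro _ ⟨χ, hχ, rfl⟩
      simp only [LinearMap.comp_apply, LinearEquiv.coe_coe, LinearEquiv.symm_apply_apply]
      exact hν.virt χ hχ

end Pull

section Top

variable {L : Type*} [Group L] [Fintype L] {G : Type*} [Group G] [Fintype G]
  {τ : (L → ℂ) → (G → ℂ)} {R : (L → ℂ) → Finset (G → ℂ)}

theorem inducedIrrAbove_eq_image (K A : Subgroup L) :
    inducedIrrAbove K A = indFun K '' irrKerD K K A := by
  ext φ
  simp only [Set.mem_image, mem_irrKerD_self]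
  exact ⟨fun ⟨θ, h1, h2, h3, h4⟩ => ⟨θ, ⟨h1, h2, h3⟩, h4.symm⟩,
    fun ⟨θ, ⟨h1, h2, h3⟩, h4⟩ => ⟨θ, h1, h2, h3, h4.symm⟩⟩

theorem pull_image_indFun (K : Subgroup L) (X : Set (↥K → ℂ)) :
    pull (Subgroup.topEquiv : (⊤ : Subgroup L) ≃* L) '' (indFun K '' X) = ind K ⊤ '' X := by
  rw [Set.image_image]
  exact Set.image_congr fun θ _ => resG_indFun_top θ

theorem pull_inducedIrrAbove (K A : Subgroup L) :
    pull (Subgroup.topEquiv : (⊤ : Subgroup L) ≃* L) '' inducedIrrAbove K A = seqIndD K ⊤ K A := by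
  rw [inducedIrrAbove_eq_image, pull_image_indFun, seqIndD]

/-- The map `τ` read on functions on the top subgroup. -/
def topMap (τ : (L → ℂ) → (G → ℂ)) : (↥(⊤ : Subgroup L) → ℂ) → (G → ℂ) :=
  fun β => τ ((pull (Subgroup.topEquiv : (⊤ : Subgroup L) ≃* L)).symm β)

theorem exists_isCoherenceSystem_top {K : Subgroup L}
    (hS : IsCoherenceSystem (inducedIrrAbove K ⊥) τ R) :
    ∃ R', IsCoherenceSystem (seqIndD K ⊤ K ⊥) (topMap τ) R' :=
  ⟨_, pull_inducedIrrAbove K ⊥ ▸ hS.pull Subgroup.topEquiv⟩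

theorem coherent_top_iff {K A : Subgroup L} :
    Coherent (seqIndD K ⊤ K A) (topMap τ) ↔ Coherent (inducedIrrAbove K A) τ := by
  rw [← pull_inducedIrrAbove]
  exact coherent_pull_iff _

theorem inducedIrrAbove_subset_bot (K A : Subgroup L) :
    inducedIrrAbove K A ⊆ inducedIrrAbove K ⊥ := by
  rw [inducedIrrAbove_eq_image, inducedIrrAbove_eq_image]
  exact Set.image_mono fun θ hθ => ⟨hθ.1, hθ.2.1, InKer.bot _⟩

theorem conjClosed_inducedIrrAbove (K A : Subgroup L) : ConjClosed (inducedIrrAbove K A) := by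
  rw [inducedIrrAbove_eq_image]
  rintro _ ⟨θ, hθ, rfl⟩
  exact ⟨_, conjFun_mem_irrKerD hθ, indFun_conjFun θ⟩

theorem top_le_norm (N : Subgroup L) [hN : N.Normal] : ⊤ ≤ 𝐍(N) :=
  (Subgroup.normalizer_eq_top N).ge

theorem isCoherent_of_top {K A : Subgroup L} [A.Normal]
    (hS : IsCoherenceSystem (inducedIrrAbove K ⊥) τ R) (hAK : A < K)
    (h : Coherent (seqIndD K ⊤ K A) (topMap τ)) : IsCoherent (inducedIrrAbove K A) {1}ᶜ τ := by
  refine hS.isCoherent (inducedIrrAbove_subset_bot K A) (conjClosed_inducedIrrAbove K A) ?_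
    (coherent_top_iff.1 h)
  rw [inducedIrrAbove_eq_image]
  exact (irrKerD_nonempty hAK le_rfl Subgroup.le_normalizer
    (le_top.trans (top_le_norm A))).image _

end Top

end Cfsg.Agent.FT
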