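import Mathlib
import Cfsg.Agent.FT.BG7_1
import Cfsg.Agent.FT.B7Aux
import Cfsg.Agent.FT.B10Aux2
import Cfsg.Agent.FT.Quot
import Cfsg.Agent.GT.ThompsonBender

/-! The transitivity theorem for groups with `p`-constrained `p`-local subgroups. -/

set_option autoImplicit false

namespace Cfsg.Agent.FT

open Cfsg B10

universe u

variable {G : Type u} [Group G] [Finite G]

theorem exists_pgroup_le_map {G' : Type u} [Group G'] [Finite G'] {p : ℕ} [Fact p.Prime]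
    (f : G →* G') {H : Subgroup G} {T : Subgroup G'} (hT : IsPGroup p T) (hTH : T ≤ H.map f) :
    ∃ S : Subgroup G, S ≤ H ∧ IsPGroup p S ∧ T ≤ S.map f := by
  obtain ⟨S, hS⟩ := syl_exists p H
  obtain ⟨_, ⟨x, hx, rfl⟩, h⟩ := syl_conj_le (hS.map f) hT hTH
  refine ⟨cj x⁻¹ S, cj_le_of_mem (inv_mem hx) hS.le, isPGroup_cj_iff.2 (syl_pgroup hS), ?_⟩
  rw [map_cj, map_inv]
  exact cj_le_iff.1 h

theorem eq_bot_of_charP_of_class_two {p : ℕ} [Fact p.Prime]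
    (hc : 𝐂(pCore p G) ≤ pCore p G) (h2 : ∀ T : Subgroup G, IsPGroup p T → ⁅T, T⁆ ≤ 𝐂(T))
    {E H : Subgroup G} (hE : IsPGroup p E)
    (hEf : ∀ T : Subgroup G, T ≤ 𝐂(E) → IsPGroup p T → T ≤ E) (hH : (Nat.card H).Coprime p)
    (hn : E ≤ 𝐍(H)) : H = ⊥ := by
  have hQ := GT.isPGroup_pCore (G := G) p
  have hd : pCore p G ⊓ H = ⊥ := GT.pCore_inf_eq_bot hH
  have nQ : ∀ X : Subgroup G, X ≤ 𝐍(pCore p G) := fun _ => Subgroup.le_normalizer_of_normal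
  have h3 : pCore p G ⊓ E ≤ 𝐂(H) := by
    rw [← commutator_eq_bot_iff_le_cent, ← le_bot_iff, ← hd]
    exact le_inf ((Subgroup.commutator_mono inf_le_left le_rfl).trans
      (commutator_le_left_of_norm (nQ H))) ((Subgroup.commutator_mono inf_le_right le_rfl).trans
        (commutator_le_right_of_norm hn))
  have h4 : ⁅E, pCore p G⁆ ≤ 𝐂(pCore p G ⊔ E) :=
    (Subgroup.commutator_mono le_sup_right le_sup_left).trans
      (h2 _ (GT.CopAct.isPGroup_sup_of_le_normalizer hQ hE (nQ E)))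
  rw [cent_sup] at h4
  have h5 : ⁅E, pCore p G⁆ ≤ pCore p G := commutator_le_right_of_norm (nQ E)
  have h6 : ⁅E, pCore p G⁆ ≤ pCore p G ⊓ 𝐂(pCore p G) ⊓ 𝐂(H) :=
    le_inf (le_inf h5 (h4.trans inf_le_left))
      ((le_inf h5 (hEf _ (h4.trans inf_le_right) (hQ.to_le h5))).trans h3)
  have nZ : ∀ X : Subgroup G, X ≤ 𝐍(H) → X ≤ 𝐍(pCore p G ⊓ 𝐂(pCore p G) ⊓ 𝐂(H)) := fun X hX =>
    le_norm_inf (le_norm_inf (nQ X) (le_norm_cent (nQ X))) (le_norm_cent hX)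
  have nZQ : pCore p G ≤ 𝐍(pCore p G ⊓ 𝐂(pCore p G) ⊓ 𝐂(H)) :=
    le_norm_of_le_cent (le_cent_comm.1 (inf_le_left.trans inf_le_right))
  have hHE : ⁅H, E⁆ ≤ H := commutator_le_left_of_norm hn
  have h7 := GT.CopAct.commutator_le_centralizer_of_normalizer (quot_le_norm _ (nQ H))
    ((quot_le_cent_iff (nZ E hn) nZQ).2 h6)
  rw [← quot_commutator (nZ H (le_norm H)) (nZ E hn),
    quot_le_cent_iff (nZ _ (hHE.trans (le_norm H))) nZQ, Subgroup.commutator_comm] at h7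
  have h8 := GT.CopAct.le_centralizer_of_commutator_le
    (GT.CopAct.coprime_mono (GT.CopAct.coprime_of_isPGroup_right hH hQ) hHE
      (inf_le_left.trans inf_le_left)) h7 (hHE.trans (le_cent_comm.1 inf_le_right))
  have h9 : H ≤ 𝐂(E) := by
    rw [← commutator_eq_bot_iff_le_cent, ← le_bot_iff, ← hd]
    exact le_inf (h8.trans hc) hHE
  exact GT.eq_bot_of_charP_of_centralizes hc hE hH h9
    ((le_inf inf_le_left (hEf _ inf_le_right hQ.to_inf_left)).trans h3)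

theorem le_pPrimeCore_of_class_two {p : ℕ} [Fact p.Prime] (hG : IsPConstrained p G)
    (h2 : ∀ T : Subgroup G, IsPGroup p T → ⁅T, T⁆ ≤ 𝐂(T)) {E H : Subgroup G} (hE : IsPGroup p E)
    (hEf : ∀ T : Subgroup G, T ≤ 𝐂(E) → IsPGroup p T → T ≤ E) (hH : (Nat.card H).Coprime p)
    (hn : E ≤ 𝐍(H)) : H ≤ pPrimeCore p G := by
  have hk := GT.coprime_card_ker_mk'_pPrimeCore (p := p) (G := G)
  have hs := QuotientGroup.mk'_surjective (pPrimeCore p G)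
  have := eq_bot_of_charP_of_class_two (GT.isPConstrained_iff.1 hG) (fun T hT => by
      obtain ⟨S, -, hS, hTS⟩ := exists_pgroup_le_map (QuotientGroup.mk' (pPrimeCore p G))
        (H := ⊤) hT (by rw [Subgroup.map_top_of_surjective _ hs]; exact le_top)
      refine ((Subgroup.commutator_mono hTS hTS).trans ?_).trans (cent_anti hTS)
      rw [← Subgroup.map_commutator, ← GT.map_centralizer_of_coprime_ker hs hk hS]
      exact Subgroup.map_mono (h2 S hS))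
    (E := E.map (QuotientGroup.mk' (pPrimeCore p G)))
    (H := H.map (QuotientGroup.mk' (pPrimeCore p G))) (hE.map _) (fun T hT hTp => by
      rw [← GT.map_centralizer_of_coprime_ker hs hk hE] at hT
      obtain ⟨S, hSE, hS, hTS⟩ := exists_pgroup_le_map _ hTp hT
      exact hTS.trans (Subgroup.map_mono (hEf S hSE hS)))
    (Nat.Coprime.coprime_dvd_left (Subgroup.card_map_dvd _ _) hH)
    ((Subgroup.map_mono hn).trans (Subgroup.le_normalizer_map _))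
  rwa [Subgroup.map_eq_bot_iff, QuotientGroup.ker_mk'] at this

theorem le_p'core_of_class_two {p : ℕ} [hp : Fact p.Prime] {X : Subgroup G}
    (hX : IsPConstrained p X) (h2 : ∀ T : Subgroup G, IsPGroup p T → ⁅T, T⁆ ≤ 𝐂(T))
    {E H : Subgroup G} (hEX : E ≤ X) (hHX : H ≤ X) (hE : IsPGroup p E)
    (hEf : ∀ T : Subgroup G, T ≤ 𝐂(E) → IsPGroup p T → T ≤ E) (hH : IsPiSubgroup {p}ᶜ H)
    (hn : E ≤ 𝐍(H)) : H ≤ piCoreOf {p}ᶜ X := by
  rw [← GT.pPrimeCoreOf_eq_piCoreOf hp.out]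
  refine GT.le_map_subtype_of_subgroupOf_le hHX (le_pPrimeCore_of_class_two hX (fun T hT => ?_)
    (E := E.subgroupOf X) (hE.comap_of_injective _ X.subtype_injective) (fun T hT hTp => ?_)
    (by rw [card_subgroupOf_of_le hHX]; exact (GT.isPiNum_compl_singleton_iff hp.out).1 hH)
    (subgroupOf_le_norm hn X))
  · have h := subgroupOf_mono X (h2 _ (hT.map X.subtype))
    rwa [subgroupOf_commutator (Subgroup.map_subtype_le T) (Subgroup.map_subtype_le T),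
      subgroupOf_cent (Subgroup.map_subtype_le T), subgroupOf_map_subtype] at h
  · rw [← subgroupOf_cent hEX] at hT
    have h := subgroupOf_mono X (hEf _ (Subgroup.map_le_iff_le_comap.2 hT) (hTp.map X.subtype))
    rwa [subgroupOf_map_subtype] at h

/-- The combinatorial part of the transitivity theorem. -/
theorem trans_max_normed_of_local {p q : ℕ} [hp : Fact p.Prime] [Fact q.Prime] (hqp : q ≠ p)
    {E : Subgroup G} (hE : IsPGroup p E) (hEc : IsMulCommutative E) (hr : ¬ PRankLE p 2 E)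
    (h : ∀ u ∈ E, u ≠ 1 → ∃ L : Subgroup G, IsPiSubgroup {p}ᶜ L ∧ 𝐂[u] ≤ 𝐍(L) ∧
      ∀ Y : Subgroup G, Y ≤ 𝐂[u] → IsPiSubgroup {p}ᶜ Y → E ≤ 𝐍(Y) → Y ≤ L) :
    TransMaxNormed (piCoreOf {p}ᶜ 𝐂(E)) E q := by
  obtain ⟨V, hV⟩ := exists_elem_of_not_pRankLE hr
  have hEu : ∀ u ∈ E, E ≤ 𝐂[u] := fun u hu =>
    (isMulCommutative_iff_le_cent.1 hEc).trans (cent_le_cent_elt hu)
  have key : ∀ (D Q₁ Q₂ : Subgroup G), Q₁ ∈ maxInvSubgroups ⊤ E {q} →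
      Q₂ ∈ maxInvSubgroups ⊤ E {q} → D = Q₁ ⊓ Q₂ →
      ∃ k ∈ piCoreOf {p}ᶜ 𝐂(E), Q₂ = cj k Q₁ := by
    intro D
    induction hn : Nat.card G - Nat.card D using Nat.strong_induction_on generalizing D with
    | _ n ih =>
    intro Q₁ Q₂ h₁ h₂ hD
    by_cases e : Q₂ = Q₁
    · exact ⟨1, one_mem _, by rw [cj_one, e]⟩
    obtain ⟨q₁, n₁⟩ := mem_max_normed h₁
    obtain ⟨q₂, n₂⟩ := mem_max_normed h₂
    have lt₁ : D < Q₁ := by
      refine lt_of_le_of_ne (hD ▸ inf_le_left) fun h => e ?_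
      exact max_normed_max h₁ q₂ n₂ (inf_eq_left.1 (hD.symm.trans h))
    have lt₂ : D < Q₂ := by
      refine lt_of_le_of_ne (hD ▸ inf_le_right) fun h => e ?_
      exact (max_normed_max h₂ q₁ n₁ (inf_eq_right.1 (hD.symm.trans h))).symm
    have hED : E ≤ 𝐍(D) := hD ▸ le_norm_inf n₁ n₂
    have g₁ := GT.Tr.lt_inf_normalizer q₁ lt₁
    have g₂ := GT.Tr.lt_inf_normalizer q₂ lt₂
    have m₁ : E ≤ 𝐍(Q₁ ⊓ 𝐍(D)) := le_norm_inf n₁ (le_norm_norm hED)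
    have m₂ : E ≤ 𝐍(Q₂ ⊓ 𝐍(D)) := le_norm_inf n₂ (le_norm_norm hED)
    obtain ⟨B, hBV, hB, hB₁⟩ : ∃ B : Subgroup G, B ≤ V ∧ Nat.card B = p ^ 2 ∧
        ¬ Q₁ ⊓ 𝐍(D) ⊓ 𝐂(B) ≤ D := by
      by_contra h'
      push Not at h'
      exact g₁.not_ge (le_of_cent_hyperplane_le hV.2.1 hV.2.2 one_le_two (hV.1.trans m₁)
        (not_dvd_card_of_isPGroup_ne hqp.symm q₁.to_inf_left) h')
    have hBe := hV.2.1.mono hBV
    obtain ⟨u, hu, hu1, hu₂⟩ : ∃ u ∈ B, u ≠ 1 ∧ ¬ Q₂ ⊓ 𝐍(D) ⊓ 𝐂[u] ≤ D := by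
      by_contra h'
      push Not at h'
      exact g₂.not_ge (le_of_cent_elt_le hBe.1 (hBe.not_isCyclic hB le_rfl)
        ((hBV.trans hV.1).trans m₂)
        (coprime_card_of_isPGroup_ne hqp.symm hBe.isPGroup q₂.to_inf_left) h')
    have hu₁ : ¬ Q₁ ⊓ 𝐍(D) ⊓ 𝐂[u] ≤ D := fun h' =>
      hB₁ ((inf_le_inf_left _ (cent_le_cent_elt hu)).trans h')
    have huE : u ∈ E := hV.1 (hBV hu)
    obtain ⟨L, hL, hnL, hLmax⟩ := h u huE hu1
    have hEL : E ≤ 𝐍(L) := (hEu u huE).trans hnL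
    have hnu : E ≤ 𝐍(𝐂[u]) := le_norm_cent_elt (hEu u huE)
    have hU : ∀ {Q : Subgroup G}, IsPGroup q Q → E ≤ 𝐍(Q ⊓ 𝐍(D)) →
        D ⊔ (Q ⊓ 𝐍(D) ⊓ 𝐂[u]) ≤ D ⊔ (L ⊓ 𝐍(D)) := fun hQ m =>
      sup_le_sup_left (le_inf (hLmax _ inf_le_right
        (pi_of_pgroup hQ.to_inf_left.to_inf_left hqp) (le_norm_inf m hnu))
        (inf_le_left.trans inf_le_right)) D
    have hW : IsPiSubgroup {p}ᶜ (D ⊔ (L ⊓ 𝐍(D))) :=
      pi_sup (pi_of_pgroup (q₁.to_le lt₁.le) hqp) (pi_le hL inf_le_left) inf_le_right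
    have l₁ : D ⊔ (Q₁ ⊓ 𝐍(D) ⊓ 𝐂[u]) ≤ Q₁ := sup_le lt₁.le (inf_le_left.trans inf_le_left)
    have l₂ : D ⊔ (Q₂ ⊓ 𝐍(D) ⊓ 𝐂[u]) ≤ Q₂ := sup_le lt₂.le (inf_le_left.trans inf_le_left)
    obtain ⟨c, hc, R, -, hRq, hER, hR₁, hR₂⟩ := coprime_exists_cj_le_common
      (le_norm_sup hED (le_norm_inf hEL (le_norm_norm hED)))
      (pi_coprime (pi_singleton_iff.2 hE) hW) (Or.inl (pgroup_sol hE)) (hU q₁ m₁) (hU q₂ m₂)
      (q₁.to_le l₁) (q₂.to_le l₂) (le_norm_sup hED (le_norm_inf m₁ hnu))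
      (le_norm_sup hED (le_norm_inf m₂ hnu))
    have hcK : c ∈ piCoreOf {p}ᶜ 𝐂(E) := by
      have h1 : (D ⊔ (L ⊓ 𝐍(D))) ⊓ 𝐂(E) ≤ L := hLmax _ (inf_le_right.trans (cent_le_cent_elt huE))
        (pi_le hW inf_le_left) (le_norm_of_le_cent (le_cent_comm.1 inf_le_right))
      exact le_core (normalIn_inf_right ((cent_le_cent_elt huE).trans hnL))
        (pi_le hL inf_le_left) ⟨h1 hc, hc.2⟩
    obtain ⟨Q₃, h₃, hRQ⟩ := max_normed_exists hRq hER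
    have c₁ := card_lt_of_lt (left_lt_sup.2 hu₁)
    have c₂ := card_lt_of_lt (left_lt_sup.2 hu₂)
    have d₁ := Subgroup.card_le_of_le (le_inf (cj_mono c l₁) (hR₁.trans hRQ))
    have d₂ := Subgroup.card_le_of_le (le_inf (hR₂.trans hRQ) l₂)
    rw [card_cj] at d₁
    have b₁ := Subgroup.card_le_card_group (cj c Q₁ ⊓ Q₃)
    have b₂ := Subgroup.card_le_card_group (Q₃ ⊓ Q₂)
    obtain ⟨k₁, hk₁, e₁⟩ := ih _ (by omega) _ rfl _ _
      (norm_acts_max_norm (cent_le_norm E hc.2) h₁) h₃ rfl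
    obtain ⟨k₂, hk₂, e₂⟩ := ih _ (by omega) _ rfl _ _ h₃ h₂ rfl
    exact ⟨k₂ * (k₁ * c), mul_mem hk₂ (mul_mem hk₁ hcK), by rw [cj_mul, cj_mul, ← e₁, ← e₂]⟩
  exact fun Q₁ h₁ Q₂ h₂ => key _ Q₁ Q₂ h₁ h₂ rfl

/-- The transitivity theorem for groups whose `p`-local subgroups are `p`-constrained. -/
theorem trans_max_normed_of_constrained {p q : ℕ} [hp : Fact p.Prime] [Fact q.Prime]
    (hqp : q ≠ p) (hloc : ∀ T : Subgroup G, IsPGroup p T → T ≠ ⊥ → IsPConstrained p 𝐍(T))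
    (h2 : p = 2 → ∀ T : Subgroup G, IsPGroup p T → ⁅T, T⁆ ≤ 𝐂(T))
    {E : Subgroup G} (hE : IsPGroup p E) (hEc : IsMulCommutative E) (hr : ¬ PRankLE p 2 E)
    (hEf : ∀ T : Subgroup G, T ≤ 𝐂(E) → IsPGroup p T → T ≤ E) :
    TransMaxNormed (piCoreOf {p}ᶜ 𝐂(E)) E q := by
  refine trans_max_normed_of_local hqp hE hEc hr fun u hu hu1 => ?_
  have h1 : 𝐂[u] ≤ 𝐍(Subgroup.zpowers u) := (cent_zpowers u).ge.trans (cent_le_norm _)
  have hX := hloc _ (hE.to_le (Subgroup.zpowers_le_of_mem hu)) (Subgroup.zpowers_ne_bot.2 hu1)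
  have hEX : E ≤ 𝐍(Subgroup.zpowers u) :=
    ((isMulCommutative_iff_le_cent.1 hEc).trans (cent_le_cent_elt hu)).trans h1
  refine ⟨piCoreOf {p}ᶜ 𝐍(Subgroup.zpowers u), pi_core _ _,
    h1.trans (piCoreOf_normalIn _ _).norm, fun Y hY hYp hn => ?_⟩
  by_cases e : p = 2
  · exact le_p'core_of_class_two hX (h2 e) hEX (hY.trans h1) hE hEf hYp hn
  · exact GT.TB.le_piCoreOf e hX hEX (hY.trans h1) hE hYp hn fun x hx hxp =>
      hn (hEf _ (Subgroup.zpowers_le_of_mem hx.2) (IsElementaryAbelian.zpowers hxp).isPGroup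
        (Subgroup.mem_zpowers x))

end Cfsg.Agent.FT
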