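import Mathlib
import Cfsg.Agent.FT.PF12_7
import Cfsg.Agent.FT.TypeF
import Cfsg.Agent.FT.BG16_Types
import Cfsg.Agent.FT.BG3_2
import Cfsg.Agent.FT.Mmax

/-!
After (12.7) the weak and the strong form of Type I agree on maximal subgroups.
-/

set_option autoImplicit false

namespace Cfsg.Agent.FT

open Cfsg

universe u

variable {G : Type u} [Group G] [Finite G] (hG : IsMinSimpleOddOrder G) {M : Subgroup G}
  (hM : IsCoatom M)
include hG hM

theorem typeI'_iff_typeI : IsOfTypeI' M ↔ IsOfTypeI M := by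
  refine ⟨fun h => ?_, isOfTypeI'_of_isOfTypeI⟩
  obtain ⟨E, hE⟩ := FTtype1_Frobenius hG hM ((FTtypeP1 hG hM).2 h)
  exact isOfTypeI_of_frobenius (mmax_sol hG hM) (mFT_odd hG M) h
    fun x hx hx1 => Frobenius_cent1_ker hE hx hx1

theorem mmax_typeA_eq : typeA M = typeA' M := (typeA'_eq_typeA (typeI'_iff_typeI hG hM)).symm

theorem mmax_typeA0_eq : typeA0 M = typeA0' M := (typeA0'_eq_typeA0 (typeI'_iff_typeI hG hM)).symm

theorem mmax_supports_iff (L : Subgroup G) : Supports L M ↔ Supports' L M :=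
  (supports'_iff_supports (typeI'_iff_typeI hG hM)).symm

end Cfsg.Agent.FT
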